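/-
The unitriangular subgroup of `Sp_{2m}(F)` is a Sylow subgroup, and its normalizer is upper triangular.
-/
import Mathlib
import Cfsg.Agent.Lib.Fusion.PSp.Basic
import Cfsg.Agent.Lib.Fusion.Saturated2

set_option autoImplicit false
set_option linter.unusedSectionVars false
set_option linter.unusedSimpArgs false
set_option linter.unusedVariables false

namespace Cfsg.Agent.Lib.Fusion.PSp.Upper

open Matrix Cfsg Cfsg.Agent.Lib.Classical.Symp.Basic Cfsg.Agent.Lib.Fusion.PSp.Basic

variable {m : ℕ} {F : Type*} [Field F]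

local notation "B" => sympForm m F

/-! ### Entries of Eichler elements -/

theorem coe_apply_eq_act (g : symplecticGroup (Fin m) F) (α β : Fin m ⊕ Fin m) :
    g.1 α β = act g (Pi.single β 1) α := by
  simp [act, Matrix.mulVec_single_one]

theorem B_single_left_inl (v : Fin m ⊕ Fin m → F) (i : Fin m) :
    B (Pi.single (Sum.inl i) 1) v = - v (Sum.inr i) := B_av_left v i

theorem B_single_left_inr (v : Fin m ⊕ Fin m → F) (i : Fin m) :
    B (Pi.single (Sum.inr i) 1) v = v (Sum.inl i) := B_bv_left v i

/-- An Eichler element with centre `a_k` is unitriangular, as soon as the vector `v` does not involve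
`b_i`, `i ≤ k`. -/
theorem isU_Et {k : Fin m} {v : Fin m ⊕ Fin m → F} (hv : ∀ i, i ≤ k → v (Sum.inr i) = 0) (c : F) :
    IsU (Et (av k) v c) := by
  have h0 : B v (av k) = 0 := by rw [B_av]; exact hv k le_rfl
  have hentry : ∀ α β, (Et (av k) v c).1 α β = (if α = β then 1 else 0) +
      B (Pi.single β 1) (av k) * v α + B (Pi.single β 1) v * (av k : Fin m ⊕ Fin m → F) α +
      c * B (Pi.single β 1) (av k) * (av k : Fin m ⊕ Fin m → F) α := by
    intro α β
    rw [coe_apply_eq_act, act_Et h0]
    simp only [Pi.add_apply, Pi.smul_apply, smul_eq_mul, Pi.single_apply]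
  constructor
  · intro α β hlt
    have hne : α ≠ β := fun e => by subst e; exact lt_irrefl _ hlt
    rw [hentry, if_neg hne, zero_add]
    have h1 : B (Pi.single β 1) (av k) * v α = 0 := by
      rw [B_av, Pi.single_apply]
      by_cases hβ : Sum.inr k = β
      · subst hβ
        rcases α with i | i
        · have := i.2
          have := k.2
          simp only [rk_inl, rk_inr] at hlt
          omega
        · have hi : i < k := by
            have := i.2
            have := k.2
            simp only [rk_inr] at hlt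
            rw [Fin.lt_def]
            omega
          rw [hv i hi.le, mul_zero]
      · rw [if_neg hβ, zero_mul]
    rw [h1, zero_add]
    by_cases hα : α = Sum.inl k
    · subst hα
      simp only [rk_inl] at hlt
      rcases β with i | i
      · rw [B_single_left_inl, hv i (by rw [Fin.le_def]; simp only [rk_inl] at hlt; omega)]
        rw [B_av]
        simp [Pi.single_apply]
      · have := i.2
        have := k.2
        simp only [rk_inr] at hlt
        omega
    · have : (av k : Fin m ⊕ Fin m → F) α = 0 := Pi.single_eq_of_ne hα _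
      rw [this]
      simp
  · intro α
    rw [hentry, if_pos rfl]
    have h2 : B (Pi.single α 1) (av k) * v α = 0 := by
      rw [B_av, Pi.single_apply]
      by_cases hβ : Sum.inr k = α
      · subst hβ
        rw [hv k le_rfl, mul_zero]
      · rw [if_neg hβ, zero_mul]
    rw [h2, add_zero]
    by_cases hα : α = Sum.inl k
    · subst hα
      rw [B_single_left_inl, hv k le_rfl, B_av]
      simp [Pi.single_apply]
    · have : (av k : Fin m ⊕ Fin m → F) α = 0 := Pi.single_eq_of_ne hα _
      rw [this]
      simp

theorem isU_tr {w : Fin m ⊕ Fin m → F} (hw : ∀ i, w (Sum.inr i) = 0) (c : F) : IsU (tr w c) := by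
  have hentry : ∀ α β, (tr w c).1 α β = (if α = β then 1 else 0) + c * B (Pi.single β 1) w * w α := by
    intro α β
    rw [coe_apply_eq_act, act_tr]
    simp only [Pi.add_apply, Pi.smul_apply, smul_eq_mul, Pi.single_apply]
  constructor
  · intro α β hlt
    have hne : α ≠ β := fun e => by subst e; exact lt_irrefl _ hlt
    rw [hentry, if_neg hne, zero_add]
    rcases α with i | i
    · rcases β with j | j
      · rw [B_single_left_inl, hw]
        simp
      · have := i.2
        have := j.2
        simp only [rk_inl, rk_inr] at hlt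
        omega
    · rw [hw]
      simp
  · intro α
    rw [hentry, if_pos rfl]
    rcases α with i | i
    · rw [B_single_left_inl, hw]
      simp
    · rw [hw]
      simp

/-- For `rk k < rk t` there is a unitriangular element with `k`-th row `e_k + e_t`. -/
theorem exists_row {k t : Fin m ⊕ Fin m} (h : rk k < rk t) :
    ∃ x : symplecticGroup (Fin m) F, IsU x ∧ ∀ y, act x y k = y k + y t := by
  rcases k with i | i <;> rcases t with j | j
  · -- `a_i`, `a_j`, `i < j`
    have hij : i < j := by rw [Fin.lt_def]; exact h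
    have hv : B (-(bv j : Fin m ⊕ Fin m → F)) (av i) = 0 := by
      rw [B_av]
      have hne2 : i ≠ j := hij.ne
      simp [Pi.single_apply, hne2]
    refine ⟨Et (av i) (-bv j) 0, isU_Et (fun l hl => ?_) 0, fun y => ?_⟩
    · have : l ≠ j := fun e => by subst e; exact absurd hij (not_lt.mpr hl)
      simp [Pi.single_apply, this]
    · rw [act_Et hv]
      simp [B_neg_right, B_bv, B_av, Pi.single_apply]
  · -- `a_i`, `b_j`
    by_cases hij : i = j
    · subst hij
      refine ⟨tr (av i) 1, isU_tr (fun l => by simp [Pi.single_apply]) 1, fun y => ?_⟩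
      rw [act_tr, B_av]
      simp [Pi.single_apply]
    · have hv : B (av j : Fin m ⊕ Fin m → F) (av i) = 0 := by
        rw [B_av]
        simp [Pi.single_apply]
      refine ⟨Et (av i) (av j) 0, isU_Et (fun l hl => by simp [Pi.single_apply]) 0, fun y => ?_⟩
      rw [act_Et hv]
      simp [B_av, Pi.single_apply, Ne.symm hij, hij]
  · -- impossible
    have := i.2
    have := j.2
    simp only [rk_inl, rk_inr] at h
    omega
  · -- `b_i`, `b_j`, `j < i`
    have hij : j < i := by
      have := i.2
      have := j.2
      simp only [rk_inr] at h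
      rw [Fin.lt_def]
      omega
    have hv : B (bv i : Fin m ⊕ Fin m → F) (av j) = 0 := by
      rw [B_av]
      simp [Pi.single_apply, hij.ne, hij.ne']
    refine ⟨Et (av j) (bv i) 0, isU_Et (fun l hl => ?_) 0, fun y => ?_⟩
    · have : i ≠ l := fun e => by subst e; exact absurd hij (not_lt.mpr hl)
      simp [Pi.single_apply, this, this.symm]
    · rw [act_Et hv]
      simp [B_bv, B_av, Pi.single_apply, hij.ne, hij.ne']

/-- An element conjugating the unitriangular group to itself is upper triangular. -/
theorem upper_of_normalizes {g : symplecticGroup (Fin m) F}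
    (hg : ∀ x, IsU x → IsU (g⁻¹ * x * g)) : ∀ α β, rk β < rk α → g.1 α β = 0 := by
  have key : ∀ n : ℕ, ∀ β, rk β = n → ∀ α, rk β < rk α → g.1 α β = 0 := by
    intro n
    induction n using Nat.strong_induction_on with
    | _ n ih =>
      intro β hβ α hlt
      obtain ⟨x, hx, hrow⟩ := exists_row (F := F) hlt
      have hU := hg x hx
      have e : x * g = g * (g⁻¹ * x * g) := by group
      have h2 := congrFun (congrFun (congrArg Subtype.val e) β) β
      have lhs : (x * g).1 β β = g.1 β β + g.1 α β := by
        have := hrow (fun γ => g.1 γ β)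
        rw [Submonoid.coe_mul]
        exact this
      have rhs : (g * (g⁻¹ * x * g)).1 β β = g.1 β β := by
        rw [Submonoid.coe_mul, Matrix.mul_apply, Finset.sum_eq_single β]
        · rw [hU.2 β, mul_one]
        · intro l _ hl
          rcases lt_or_gt_of_ne (fun e => hl (rk_inj e)) with h | h
          · rw [ih (rk l) (by omega) l rfl β h, zero_mul]
          · rw [hU.1 l β h, mul_zero]
        · simp
      rw [lhs, rhs] at h2
      exact add_eq_left.1 h2
  intro α β h
  exact key _ β rfl α h

/-- Upper triangular elements. -/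
def IsUp (g : symplecticGroup (Fin m) F) : Prop := ∀ α β, rk β < rk α → g.1 α β = 0

theorem IsUp.mul {g h : symplecticGroup (Fin m) F} (hg : IsUp g) (hh : IsUp h) : IsUp (g * h) := by
  intro α β hlt
  rw [Submonoid.coe_mul, Matrix.mul_apply]
  refine Finset.sum_eq_zero fun k _ => ?_
  by_cases hk : rk k < rk α
  · rw [hg α k hk, zero_mul]
  · rw [hh k β (by omega), mul_zero]

theorem IsUp.diag_mul {g h : symplecticGroup (Fin m) F} (hg : IsUp g) (hh : IsUp h)
    (α : Fin m ⊕ Fin m) : (g * h).1 α α = g.1 α α * h.1 α α := by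
  rw [Submonoid.coe_mul, Matrix.mul_apply, Finset.sum_eq_single α]
  · intro k _ hk
    rcases lt_or_gt_of_ne (fun e => hk (rk_inj e)) with h' | h'
    · rw [hg α k h', zero_mul]
    · rw [hh k α h', mul_zero]
  · simp

theorem IsUp.pow {g : symplecticGroup (Fin m) F} (hg : IsUp g) (n : ℕ) :
    IsUp (g ^ n) ∧ ∀ α, (g ^ n).1 α α = g.1 α α ^ n := by
  induction n with
  | zero =>
    refine ⟨?_, fun α => by simp⟩
    rw [pow_zero]
    exact isU_one.1
  | succ n ih =>
    rw [pow_succ]
    refine ⟨ih.1.mul hg, fun α => ?_⟩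
    rw [IsUp.diag_mul ih.1 hg, ih.2, pow_succ]

/-! ### `p`-elements -/

variable [Finite F] {p : ℕ} [hp : Fact p.Prime] [hc : CharP F p]

/-- `p`-elements of `Sp`. -/
def PEl (p : ℕ) (A : symplecticGroup (Fin m) F) : Prop := ∃ a : ℕ, A ^ (p ^ a) = 1

theorem PEl.conj {A : symplecticGroup (Fin m) F} (h : PEl p A) (g : symplecticGroup (Fin m) F) :
    PEl p (g * A * g⁻¹) := by
  obtain ⟨a, ha⟩ := h
  exact ⟨a, by rw [conj_pow, ha]; simp⟩

theorem frob_eq_one {s : F} {q : ℕ} (h : s ^ (p ^ q) = 1) : s = 1 := by
  have h5 : (s - 1) ^ (p ^ q) = 0 := by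
    rw [sub_pow_char_pow, h, one_pow, sub_self]
  exact sub_eq_zero.1 (pow_eq_zero_iff (by have := hp.out.pos; positivity) |>.1 h5)

/-- The unitriangular group is a `p`-group. -/
theorem pEl_of_isU [NeZero m] {g : symplecticGroup (Fin m) F} (hg : IsU g) : PEl p g := by
  classical
  haveI : Nonempty (Fin m ⊕ Fin m) := ⟨Sum.inl ⟨0, NeZero.pos m⟩⟩
  set N : Matrix (Fin m ⊕ Fin m) (Fin m ⊕ Fin m) F := g.1 - 1 with hN
  have hNe : ∀ α β, rk β ≤ rk α → N α β = 0 := by
    intro α β h
    rcases h.lt_or_eq with h | h
    · have hne : α ≠ β := fun e => by subst e; exact lt_irrefl _ h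
      simp [hN, hg.1 α β h, Matrix.one_apply, hne]
    · have := rk_inj h
      subst this
      simp [hN, hg.2]
  have hpow : ∀ k α β, rk β < rk α + k → (N ^ k) α β = 0 := by
    intro k
    induction k with
    | zero =>
      intro α β h
      have hne : α ≠ β := fun e => by subst e; omega
      simp [Matrix.one_apply, hne]
    | succ k ih =>
      intro α β h
      rw [pow_succ, Matrix.mul_apply]
      refine Finset.sum_eq_zero fun l _ => ?_
      by_cases hl : rk l < rk α + k
      · rw [ih α l hl, zero_mul]
      · rw [hNe l β (by omega), mul_zero]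
  have h0 : N ^ (p ^ (2 * m)) = 0 := by
    ext α β
    apply hpow
    have h1 := rk_lt β
    have h2 : 2 * m < p ^ (2 * m) := Nat.lt_pow_self hp.out.one_lt
    omega
  refine ⟨2 * m, ?_⟩
  apply Subtype.ext
  have e : g.1 = N + 1 := by simp [hN]
  rw [SubmonoidClass.coe_pow, e, add_pow_char_pow_of_commute (p := p) (n := 2 * m) (h := Commute.one_right N), h0]
  simp

theorem isPGroup_USp [NeZero m] : IsPGroup p (USp m F) := by
  intro g
  obtain ⟨a, ha⟩ := pEl_of_isU (p := p) g.2
  exact ⟨a, Subtype.ext ha⟩

/-- A `p`-element which is upper triangular is unitriangular. -/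
theorem isU_of_isUp_pEl {g : symplecticGroup (Fin m) F} (hg : IsUp g) (h : PEl p g) : IsU g := by
  obtain ⟨a, ha⟩ := h
  refine ⟨hg, fun α => ?_⟩
  have h1 := (hg.pow (p ^ a)).2 α
  rw [ha] at h1
  have h2 : g.1 α α ^ p ^ a = 1 := by
    rw [← h1]
    simp
  exact frob_eq_one h2

/-- The unitriangular group is a Sylow subgroup of `Sp`. -/
theorem exists_sylow [NeZero m] : ∃ S : Sylow p (symplecticGroup (Fin m) F),
    (S : Subgroup (symplecticGroup (Fin m) F)) = USp m F := by
  obtain ⟨P, hP⟩ := (isPGroup_USp (p := p) (m := m) (F := F)).exists_le_sylow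
  refine ⟨P, ?_⟩
  by_contra hne
  have hlt : USp m F < (P : Subgroup (symplecticGroup (Fin m) F)) := lt_of_le_of_ne hP (Ne.symm hne)
  have h1 := Cfsg.Agent.Lib.Fusion.Saturated2.lt_normalizerIn P.isPGroup' hlt
  obtain ⟨x, hx, hnx⟩ := SetLike.exists_of_lt h1
  apply hnx
  have hxN : x ∈ Subgroup.normalizer ((USp m F : Subgroup _) : Set (symplecticGroup (Fin m) F)) := hx.2
  have hup : IsUp x := upper_of_normalizes fun u hu => by
    have h3 := (Subgroup.mem_normalizer_iff.1 (Subgroup.inv_mem _ hxN) u).1 hu
    have h4 : x⁻¹ * u * x ∈ USp m F := by simpa using h3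
    exact h4
  have hpx : PEl p x := by
    obtain ⟨a, ha⟩ := P.isPGroup' ⟨x, hx.1⟩
    exact ⟨a, congrArg Subtype.val ha⟩
  exact isU_of_isUp_pEl hup hpx

end Cfsg.Agent.Lib.Fusion.PSp.Upper
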