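/-
Strongly closed subgroups of the unitriangular group of `Sp_{2m}(F)`.
-/
import Mathlib
import Cfsg.Agent.Lib.Fusion.PSp.Upper

set_option autoImplicit false
set_option linter.unusedSectionVars false
set_option linter.unusedSimpArgs false
set_option linter.unusedVariables false

namespace Cfsg.Agent.Lib.Fusion.PSp.Closed

open Matrix Cfsg Cfsg.Agent.Lib.Classical.Symp.Basic Cfsg.Agent.Lib.Classical.Symp.AltForm
open Cfsg.Agent.Lib.Fusion.PSp.Basic Cfsg.Agent.Lib.Fusion.PSp.Upper

variable {m : ℕ} {F : Type*} [Field F]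

local notation "B" => sympForm m F

/-! ### Transitivity on the perp of a hyperbolic plane -/

/-- Vectors with vanishing `k`-coordinates. -/
def Wk (k : Fin m) : Submodule F (Fin m ⊕ Fin m → F) where
  carrier := {x | x (Sum.inl k) = 0 ∧ x (Sum.inr k) = 0}
  add_mem' := by
    rintro x y ⟨h1, h2⟩ ⟨h3, h4⟩
    simp [h1, h2, h3, h4]
  zero_mem' := by simp
  smul_mem' := by
    rintro c x ⟨h1, h2⟩
    simp [h1, h2]

theorem mem_Wk {k : Fin m} {x : Fin m ⊕ Fin m → F} :
    x ∈ Wk k ↔ x (Sum.inl k) = 0 ∧ x (Sum.inr k) = 0 := Iff.rfl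

theorem Wk_nondeg (k : Fin m) (x : Fin m ⊕ Fin m → F) (hx : x ∈ Wk k) (h0 : x ≠ 0) :
    ∃ y ∈ Wk k, B x y ≠ 0 := by
  obtain ⟨α, hα⟩ := Function.ne_iff.1 h0
  rcases α with i | i
  · have hik : i ≠ k := fun e => hα (by rw [e]; exact hx.1)
    refine ⟨bv i, ⟨?_, ?_⟩, ?_⟩
    · simp
    · simp [Ne.symm hik, hik]
    · rw [B_bv]
      simpa using hα
  · have hik : i ≠ k := fun e => hα (by rw [e]; exact hx.2)
    refine ⟨av i, ⟨?_, ?_⟩, ?_⟩
    · simp [Ne.symm hik, hik]
    · simp
    · rw [B_av]
      simpa using hα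

/-- The isometries coming from transvections with vector in `Wk k` fix `a_k` and are transitive on nonzero
vectors of `Wk k`. -/
theorem exists_fix_move {k : Fin m} {v v' : Fin m ⊕ Fin m → F} (hv : v ∈ Wk k) (hv' : v' ∈ Wk k)
    (h0 : v ≠ 0) (h0' : v' ≠ 0) :
    ∃ A : symplecticGroup (Fin m) F, act A (av k) = av k ∧ act A v = v' := by
  have hA' := sympBilin_isAlt (m := m) (F := F)
  obtain ⟨g, hg, h1⟩ := tvGroup_transitive_vec hA' (W := Wk k) (Wk_nondeg k) hv hv' h0 h0'
  have hg' : g ∈ tvGroup hA' Set.univ := tvGroup_mono hA' (Set.subset_univ _) hg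
  obtain ⟨A, -, hA⟩ := exists_mem_closure_of_mem_tvGroup hg'
  refine ⟨A, ?_, ?_⟩
  · rw [act_def, hA]
    refine tvGroup_fix hA' hg fun w hw => ?_
    rw [sympBilin_apply, B_av_left]
    simp [hw.2]
  · rw [act_def, hA, h1]

/-! ### Elements fixing `a_k` and acting trivially on the perp modulo `a_k` -/

theorem B_bv_av (k : Fin m) : B (bv k) (av k) = 1 := by
  rw [B_av]
  simp

/-- Classification of the elements of the radical. -/
theorem eq_Et_of {k : Fin m} {g : symplecticGroup (Fin m) F} (h1 : act g (av k) = av k)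
    (h2 : ∀ v, B v (av k) = 0 → ∃ s : F, act g v = v + s • av k) :
    ∃ (v₀ : Fin m ⊕ Fin m → F) (c₀ : F), v₀ ∈ Wk k ∧ g = Et (av k) v₀ c₀ := by
  set z := act g (bv k) - bv k with hz
  have hzB : B z (av k) = 0 := by
    have h3 := B_act g (bv k) (av k)
    rw [h1] at h3
    rw [hz, sub_eq_add_neg, B_add_left, B_neg_left, h3, add_neg_cancel]
  set c₀ := z (Sum.inl k) with hc₀
  set v₀ := z - c₀ • av k with hv₀
  have hv₀B : B v₀ (av k) = 0 := by
    rw [hv₀, sub_eq_add_neg, B_add_left, B_neg_left, B_smul_left, B_self, hzB]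
    simp
  have hv₀l : v₀ (Sum.inl k) = 0 := by
    simp [hv₀, hc₀]
  have hv₀r : v₀ (Sum.inr k) = 0 := by
    have := hv₀B
    rw [B_av] at this
    exact this
  refine ⟨v₀, c₀, ⟨hv₀l, hv₀r⟩, ?_⟩
  apply sp_ext
  intro x
  rw [act_Et hv₀B]
  -- decomposition of `x`
  set lam := B x (av k) with hlam
  set x' := x - lam • bv k with hx'
  have hx'B : B x' (av k) = 0 := by
    rw [hx', sub_eq_add_neg, B_add_left, B_neg_left, B_smul_left, B_bv_av, hlam]
    simp
  obtain ⟨s, hs⟩ := h2 x' hx'B
  have hx : x = x' + lam • bv k := by simp [hx']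
  have hgb : act g (bv k) = bv k + v₀ + c₀ • av k := by
    rw [add_assoc, hv₀, sub_add_cancel, hz]
    abel
  have hs' : s = B x' v₀ := by
    have h3 := B_act g x' (bv k)
    rw [hs, hgb] at h3
    simp only [B_add_left, B_add_right, B_smul_left, B_smul_right, B_self] at h3
    have h4 : B (av k) (bv k) = -1 := by
      rw [B_swap, B_bv_av]
    have h5 : B (av k) v₀ = 0 := by rw [B_swap, hv₀B, neg_zero]
    rw [hx'B, h4, h5] at h3
    simp only [mul_zero, zero_add, add_zero] at h3
    linear_combination -h3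
  have hBx : B x v₀ = B x' v₀ := by
    rw [hx, B_add_left, B_smul_left, B_bv_left, hv₀l]
    simp
  have hgx : act g x = x' + s • av k + lam • (bv k + v₀ + c₀ • av k) := by
    conv_lhs => rw [hx, act_add, act_smul, hs, hgb]
  rw [hgx, hBx, ← hs']
  ext i
  simp only [Pi.add_apply, Pi.smul_apply, smul_eq_mul, hx', Pi.sub_apply]
  ring

/-- If `g` fixes `a_k` and commutes with all `E(a_k, v, 0)` then `g` is in the radical. -/
theorem eq_Et_of_comm {k : Fin m} {g : symplecticGroup (Fin m) F} (h1 : act g (av k) = av k)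
    (h2 : ∀ v, B v (av k) = 0 → g * Et (av k) v 0 = Et (av k) v 0 * g) :
    ∃ (v₀ : Fin m ⊕ Fin m → F) (c₀ : F), v₀ ∈ Wk k ∧ g = Et (av k) v₀ c₀ := by
  refine eq_Et_of h1 fun v hv => ?_
  have h3 := h2 v hv
  have hv' : B (act g v) (av k) = 0 := by
    have := B_act g v (av k)
    rwa [h1, hv] at this
  have h4 : g * Et (av k) v 0 * g⁻¹ = Et (av k) v 0 := by
    rw [h3]
    group
  rw [Et_conj_of_fix hv _ h1] at h4
  have h5 := congrArg (fun E => act E (bv k)) h4
  simp only [act_Et hv', act_Et hv, B_bv_av, zero_mul, zero_smul, add_zero, one_smul] at h5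
  refine ⟨B (bv k) v - B (bv k) (act g v), ?_⟩
  have h6 : act g v = v + B (bv k) v • av k - B (bv k) (act g v) • av k := by
    have h7 : bv k + act g v + B (bv k) (act g v) • av k - (bv k + v + B (bv k) v • av k) = 0 := by
      rw [h5, sub_self]
    ext i
    have := congrFun h7 i
    simp only [Pi.add_apply, Pi.sub_apply, Pi.smul_apply, smul_eq_mul, Pi.zero_apply] at this ⊢
    linear_combination this
  rw [sub_smul, ← add_sub_assoc]
  exact h6

/-! ### Strongly closed subgroups -/

section closed
variable [Finite F]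

/-- Subgroups of `USp` closed under conjugation inside `USp`. -/
structure Cl (T : Subgroup (symplecticGroup (Fin m) F)) : Prop where
  le : T ≤ USp m F
  cl : ∀ x ∈ T, ∀ g, g * x * g⁻¹ ∈ USp m F → g * x * g⁻¹ ∈ T

variable {T : Subgroup (symplecticGroup (Fin m) F)}

theorem isU_tr_of (w : Fin m ⊕ Fin m → F) (hw : ∀ i, w (Sum.inr i) = 0) (c : F) :
    tr w c ∈ USp m F := isU_tr hw c

/-- All transvections with a fixed centre. -/
theorem tr_mem_all (hT : Cl T) {k : Fin m} {d : F} (hd : d ≠ 0) (h : tr (av k) d ∈ T) (e : F) :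
    tr (av k) e ∈ T := by
  have havk : ∀ i, (av k : Fin m ⊕ Fin m → F) (Sum.inr i) = 0 := fun i => by simp
  have hsq : ∀ μ : F, tr (av k) (μ ^ 2 * d) ∈ T := by
    intro μ
    by_cases hμ : μ = 0
    · subst hμ
      simp [tr_zero, T.one_mem]
    · have hne : (av k : Fin m ⊕ Fin m → F) ≠ 0 := by
        intro h0
        have := congrFun h0 (Sum.inl k)
        simp at this
      have hne' : μ • (av k : Fin m ⊕ Fin m → F) ≠ 0 := smul_ne_zero hμ hne
      obtain ⟨A, -, hA⟩ := closure_transitive_vec hne hne'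
      have h1 : A * tr (av k) d * A⁻¹ = tr (av k) (μ ^ 2 * d) := by
        rw [tr_conj, act_def, hA, tr_smul]
      rw [← h1]
      refine hT.cl _ h _ ?_
      rw [h1]
      exact isU_tr havk _
  have hdiff : ∃ μ₁ μ₂ : F, e / d = μ₁ ^ 2 - μ₂ ^ 2 := by
    classical
    haveI := Fintype.ofFinite F
    by_cases h2 : ringChar F = 2
    · obtain ⟨r, hr⟩ := FiniteField.isSquare_of_char_two h2 (e / d)
      exact ⟨r, 0, by rw [hr]; ring⟩
    · have h20 : (2 : F) ≠ 0 := Ring.two_ne_zero h2
      refine ⟨(e / d + 1) / 2, (e / d - 1) / 2, ?_⟩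
      field_simp
      ring
  obtain ⟨μ₁, μ₂, h⟩ := hdiff
  have h3 : e = μ₁ ^ 2 * d + -(μ₂ ^ 2 * d) := by
    have : e = (μ₁ ^ 2 - μ₂ ^ 2) * d := by rw [← h]; field_simp
    rw [this]
    ring
  rw [h3, ← tr_add, ← tr_inv]
  exact T.mul_mem (hsq _) (T.inv_mem (hsq _))

theorem av_ne_zero (k : Fin m) : (av k : Fin m ⊕ Fin m → F) ≠ 0 := by
  intro h0
  have := congrFun h0 (Sum.inl k)
  simp at this

theorem tr_zero_vec (e : F) : tr (0 : Fin m ⊕ Fin m → F) e = 1 := by
  apply sp_ext
  intro x
  rw [act_tr, act_one]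
  simp

/-- All transvections with centre in the `a`-space. -/
theorem tr_mem_iso (hT : Cl T) {k : Fin m} (h : ∀ e : F, tr (av k) e ∈ T)
    {w : Fin m ⊕ Fin m → F} (hw : ∀ i, w (Sum.inr i) = 0) (e : F) : tr w e ∈ T := by
  by_cases h0 : w = 0
  · subst h0
    rw [tr_zero_vec]
    exact T.one_mem
  · obtain ⟨A, -, hA⟩ := closure_transitive_vec (av_ne_zero k) h0
    have h1 : A * tr (av k) e * A⁻¹ = tr w e := by
      rw [tr_conj, act_def, hA]
    rw [← h1]
    refine hT.cl _ (h e) _ ?_
    rw [h1]
    exact isU_tr hw _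

/-- All Eichler elements. -/
theorem Et_mem (hm : 2 ≤ m) (hT : Cl T) (h : ∀ (k : Fin m) (e : F), tr (av k) e ∈ T)
    (k : Fin m) {v : Fin m ⊕ Fin m → F} (hv : v ∈ Wk k) (hv2 : ∀ i, i ≤ k → v (Sum.inr i) = 0) (c : F) :
    Et (av k) v c ∈ T := by
  by_cases h0 : v = 0
  · subst h0
    rw [← tr_eq_Et]
    exact h k c
  · obtain ⟨k', hk'⟩ : ∃ k' : Fin m, k' ≠ k := by
      by_cases hk : (k : ℕ) = 0
      · exact ⟨⟨1, by omega⟩, fun e => by rw [← e] at hk; simp at hk⟩
      · exact ⟨⟨0, by omega⟩, fun e => hk (by rw [← e])⟩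
    have hv₁ : (av k' : Fin m ⊕ Fin m → F) ∈ Wk k := by
      constructor
      · simp [hk', Ne.symm hk']
      · simp
    obtain ⟨A, hA1, hA2⟩ := exists_fix_move hv₁ hv (av_ne_zero k') h0
    have hB : B (av k' : Fin m ⊕ Fin m → F) (av k) = 0 := by
      rw [B_av]
      simp
    have h1 : A * Et (av k) (av k') c * A⁻¹ = Et (av k) v c := by
      rw [Et_conj_of_fix hB _ hA1, hA2]
    rw [← h1]
    have hm1 : Et (av k) (av k') c ∈ T := by
      refine T.mul_mem (tr_mem_iso hT (h k) (fun i => ?_) _) (T.mul_mem (tr_mem_iso hT (h k) (fun i => ?_) _)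
        (h k _))
      · simp
      · simp
    refine hT.cl _ hm1 _ ?_
    rw [h1]
    exact isU_Et hv2 c

/-- All of `USp`. -/
theorem USp_le (hm : 2 ≤ m) (hT : Cl T) (h : ∀ (k : Fin m) (e : F), tr (av k) e ∈ T) :
    USp m F ≤ T := by
  classical
  have main : ∀ j : ℕ, j ≤ m → ∀ u : symplecticGroup (Fin m) F, IsU u →
      (∀ i : Fin m, i.val < m - j → act u (bv i) = bv i) → u ∈ T := by
    intro j
    induction j with
    | zero =>
      intro _ u hu hfix
      have hfix' : ∀ i : Fin m, act u (bv i) = bv i := fun i => hfix i (by have := i.2; omega)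
      have : u = 1 := by
        apply Subtype.ext
        ext α β
        rw [coe_apply_eq_act]
        rcases β with j | j
        · rcases α with i | i
          · have h1 := B_act u (av j) (bv i)
            rw [hfix' i, B_bv, B_bv] at h1
            simp only [Submonoid.coe_one, Matrix.one_apply]
            have h2 : act u (av j) (Sum.inl i) = (av j : Fin m ⊕ Fin m → F) (Sum.inl i) := neg_injective h1
            rw [h2]
            by_cases hij : i = j
            · subst hij
              simp
            · have hji : j ≠ i := Ne.symm hij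
              simp [hij]
          · rw [← coe_apply_eq_act, hu.1 _ _ (by
              have := i.2
              have := j.2
              simp only [rk_inl, rk_inr]
              omega)]
            simp
        · rw [hfix' j]
          simp only [Submonoid.coe_one, Matrix.one_apply, Pi.single_apply]
      rw [this]
      exact T.one_mem
    | succ j ih =>
      intro hj u hu hfix
      have hk : m - j - 1 < m := by omega
      let k : Fin m := ⟨m - j - 1, hk⟩
      have hu' : IsU u⁻¹ := (USp m F).inv_mem hu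
      set z := act u⁻¹ (bv k) with hz
      have hfixlt : ∀ i : Fin m, i < k → act u (bv i) = bv i := fun i hi => hfix i (by
        have : i.val < m - j - 1 := hi
        omega)
      have hfixinv : ∀ i : Fin m, i < k → act u⁻¹ (bv i) = bv i := fun i hi => by
        conv_lhs => rw [← hfixlt i hi]
        exact act_inv_act u _
      have hzk : z (Sum.inr k) = 1 := by
        rw [hz, ← coe_apply_eq_act, hu'.2]
      have hzr : ∀ i, i < k → z (Sum.inr i) = 0 := by
        intro i hi
        rw [hz, ← coe_apply_eq_act, hu'.1]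
        have := i.2
        have := k.2
        have h3 : i.val < k.val := hi
        simp only [rk_inr]
        omega
      have hzl : ∀ i, i < k → z (Sum.inl i) = 0 := by
        intro i hi
        have h1 := B_act u⁻¹ (bv k) (bv i)
        rw [hfixinv i hi, B_bv, B_bv] at h1
        have h2 : (bv k : Fin m ⊕ Fin m → F) (Sum.inl i) = 0 := by simp
        rw [h2] at h1
        rw [hz]
        simpa using h1
      set c' := z (Sum.inl k) with hc'
      set v' := z - bv k - c' • av k with hv'
      have hv'l : v' (Sum.inl k) = 0 := by simp [hv', hc']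
      have hv'r : v' (Sum.inr k) = 0 := by simp [hv', hzk]
      have hv'2 : ∀ i, i ≤ k → v' (Sum.inr i) = 0 := by
        intro i hi
        rcases hi.lt_or_eq with hi | hi
        · have : i ≠ k := hi.ne
          simp [hv', hzr i hi, this]
        · rw [hi]
          exact hv'r
      have hv'B : B v' (av k) = 0 := by rw [B_av]; exact hv'r
      have hE := Et_mem hm hT h k ⟨hv'l, hv'r⟩ hv'2 c'
      have hmul : u = (u * Et (av k) v' c') * (Et (av k) v' c')⁻¹ := by group
      rw [hmul]
      refine T.mul_mem (ih (by omega) _ (hu.mul (hT.le hE)) fun i hi => ?_) (T.inv_mem hE)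
      have hik : i ≤ k := by
        rw [Fin.le_def]
        show i.val ≤ m - j - 1
        omega
      rw [act_mul, act_Et hv'B, B_av, B_bv_left]
      rcases hik.lt_or_eq with hlt | heq
      · have h1 : i ≠ k := hlt.ne
        have h2 : v' (Sum.inl i) = 0 := by
          simp [hv', hzl i hlt, h1]
        simp only [h2, Pi.single_apply]
        simp [h1, Ne.symm h1, hfixlt i hlt]
      · subst heq
        rw [hv'l]
        have h3 : bv k + v' + c' • av k = z := by
          rw [hv']
          ext α
          simp only [Pi.add_apply, Pi.sub_apply, Pi.smul_apply, smul_eq_mul]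
          ring
        have h4 : (bv k : Fin m ⊕ Fin m → F) (Sum.inr k) = 1 := by simp
        simp only [h4, one_smul, zero_smul, add_zero, one_mul, mul_one]
        rw [h3, hz]
        exact act_act_inv u _
  exact fun u hu => main m le_rfl u hu fun i hi => by have := i.2; omega

end closed

section closed2
variable [Finite F] {p : ℕ} [hp : Fact p.Prime] [hc : CharP F p]
variable {T : Subgroup (symplecticGroup (Fin m) F)}

include hc in
/-- **Strongly closed subgroups.** -/
theorem closed_cases [NeZero m] (hm : 2 ≤ m) (hex : m = 2 → 3 ≤ Nat.card F) (hT : Cl T) (hne : T ≠ ⊥) :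
    T = USp m F := by
  classical
  let k₀ : Fin m := ⟨0, by omega⟩
  -- a central element
  have hTn : (T.subgroupOf (USp m F)).Normal := by
    constructor
    intro x hx g
    rw [Subgroup.mem_subgroupOf] at hx ⊢
    exact hT.cl _ hx _ (by exact_mod_cast (g * x * g⁻¹).2)
  have hne' : T.subgroupOf (USp m F) ≠ ⊥ := by
    intro h
    rw [Subgroup.subgroupOf_eq_bot] at h
    exact hne (h.eq_bot_of_le hT.le)
  have hZ := Cfsg.Agent.Lib.Basic.SylowUtil.inf_center_ne_bot_of_isPGroup
    (isPGroup_USp (p := p) (m := m) (F := F)) hne'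
  obtain ⟨⟨y, hy⟩, hy1⟩ := (Subgroup.ne_bot_iff_exists_ne_one).1 hZ
  have hyT : ((y : USp m F) : symplecticGroup (Fin m) F) ∈ T := Subgroup.mem_subgroupOf.1 hy.1
  have hyc : ∀ u : symplecticGroup (Fin m) F, IsU u →
      ((y : USp m F) : symplecticGroup (Fin m) F) * u = u * y := by
    intro u hu
    have := Subgroup.mem_center_iff.1 hy.2 ⟨u, hu⟩
    exact (congrArg Subtype.val this).symm
  set x : symplecticGroup (Fin m) F := y.1 with hx
  have hxU : IsU x := y.2
  have hxne : x ≠ 1 := by
    intro h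
    apply hy1
    apply Subtype.ext
    apply Subtype.ext
    exact h
  -- it fixes `a_0`
  have hfix : act x (av k₀) = av k₀ := by
    ext α
    rw [← coe_apply_eq_act]
    by_cases hα : α = Sum.inl k₀
    · subst hα
      rw [hxU.2]
      simp
    · rw [hxU.1]
      · have h0 : (av k₀ : Fin m ⊕ Fin m → F) α = 0 := Pi.single_eq_of_ne hα _
        exact h0.symm
      · have : rk (Sum.inl k₀) = 0 := rfl
        rw [this]
        rcases α with i | i
        · have : i.val ≠ 0 := fun e => hα (by rw [Fin.ext (a := i) (b := k₀) e])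
          simp only [rk_inl]
          omega
        · have := i.2
          simp only [rk_inr]
          omega
  have hle0 : ∀ i : Fin m, i ≤ k₀ → i = k₀ := by
    intro i hi
    apply Fin.ext
    have : i.val ≤ 0 := hi
    exact Nat.le_zero.1 this
  obtain ⟨v₀, c₀, hv₀, hxE⟩ := eq_Et_of_comm hfix fun v hv => by
    refine hyc _ (isU_Et (fun i hi => ?_) 0)
    rw [hle0 i hi]
    rw [B_av] at hv
    exact hv
  -- a transvection in `T`
  have key : ∃ d : F, d ≠ 0 ∧ tr (av k₀) d ∈ T := by
    by_cases h0 : v₀ = 0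
    · subst h0
      refine ⟨c₀, ?_, ?_⟩
      · rintro rfl
        exact hxne (by rw [hxE, Et_zero_zero])
      · rw [tr_eq_Et, ← hxE]
        exact hyT
    · have hv₀B : B v₀ (av k₀) = 0 := by rw [B_av]; exact hv₀.2
      have hE1 : ∀ v ∈ Wk k₀, v ≠ 0 → Et (av k₀) v c₀ ∈ T := by
        intro v hv hv0
        obtain ⟨A, hA1, hA2⟩ := exists_fix_move hv₀ hv h0 hv0
        have h1 : A * x * A⁻¹ = Et (av k₀) v c₀ := by
          rw [hxE, Et_conj_of_fix hv₀B _ hA1, hA2]
        rw [← h1]
        refine hT.cl _ hyT _ ?_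
        rw [h1]
        refine isU_Et (fun i hi => ?_) c₀
        rw [hle0 i hi]
        exact hv.2
      have hE2 : ∀ v₁ ∈ Wk k₀, ∀ v₂ ∈ Wk k₀, v₁ ≠ 0 → v₂ ≠ 0 → v₁ + v₂ ≠ 0 →
          tr (av k₀) (c₀ + B v₂ v₁) ∈ T := by
        intro v₁ h₁ v₂ h₂ n₁ n₂ n₃
        have h3 : B v₁ (av k₀) = 0 := by rw [B_av]; exact h₁.2
        have h4 : B v₂ (av k₀) = 0 := by rw [B_av]; exact h₂.2
        have h5 : B (v₁ + v₂) (av k₀) = 0 := by rw [B_add_left, h3, h4, add_zero]
        have h6 := T.mul_mem (T.inv_mem (hE1 _ (Submodule.add_mem _ h₁ h₂) n₃))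
          (T.mul_mem (hE1 _ h₁ n₁) (hE1 _ h₂ n₂))
        rw [Et_mul h3 h4, Et_inv h5, Et_mul (by rw [B_neg_left, h5, neg_zero]) h5,
          neg_add_cancel, B_neg_right, B_self, neg_zero, add_zero, ← tr_eq_Et] at h6
        convert h6 using 2
        ring
      have hk1 : 1 < m := by omega
      let k₁ : Fin m := ⟨1, hk1⟩
      have hk10 : k₁ ≠ k₀ := by simp [k₁, k₀, Fin.ext_iff]
      have hav1 : (av k₁ : Fin m ⊕ Fin m → F) ∈ Wk k₀ := by
        constructor
        · simp [hk10, Ne.symm hk10]
        · simp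
      have hbv1 : (bv k₁ : Fin m ⊕ Fin m → F) ∈ Wk k₀ := by
        constructor
        · simp
        · simp [hk10, Ne.symm hk10]
      by_cases hs : ∃ s : F, s ≠ 0 ∧ c₀ + s ≠ 0
      · obtain ⟨s, hs0, hs1⟩ := hs
        refine ⟨c₀ + s, hs1, ?_⟩
        have h7 := hE2 (s • av k₁) (Submodule.smul_mem _ _ hav1) (bv k₁) hbv1
          (smul_ne_zero hs0 (av_ne_zero k₁))
          (fun h => by
            have := congrFun h (Sum.inr k₁)
            simp at this)
          (fun h => by
            have := congrFun h (Sum.inl k₁)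
            simp [hs0] at this)
        rw [B_smul_right, B_bv_av, mul_one] at h7
        exact h7
      · push Not at hs
        have hc0 : c₀ ≠ 0 := by
          intro h
          have := hs 1 one_ne_zero
          rw [h, zero_add] at this
          exact one_ne_zero this
        have hm3 : m ≠ 2 := by
          intro hm2
          have h3 := hex hm2
          haveI := Fintype.ofFinite F
          have hall : (Finset.univ : Finset F) ⊆ {0, -c₀} := by
            intro s _
            by_cases hs0 : s = 0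
            · simp [hs0]
            · have := hs s hs0
              have : s = -c₀ := by linear_combination this
              simp [this]
          have h4 := Finset.card_le_card hall
          have h5 : ({0, -c₀} : Finset F).card ≤ 2 := Finset.card_le_two
          rw [Finset.card_univ, ← Nat.card_eq_fintype_card] at h4
          omega
        have hk2 : 2 < m := by omega
        let k₂ : Fin m := ⟨2, hk2⟩
        have hk20 : k₂ ≠ k₀ := by simp [k₂, k₀, Fin.ext_iff]
        have hk21 : k₂ ≠ k₁ := by simp [k₂, k₁, Fin.ext_iff]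
        have hav2 : (av k₂ : Fin m ⊕ Fin m → F) ∈ Wk k₀ := by
          constructor
          · simp [hk20, Ne.symm hk20]
          · simp
        refine ⟨c₀, hc0, ?_⟩
        have h7 := hE2 (av k₁) hav1 (av k₂) hav2 (av_ne_zero _) (av_ne_zero _)
          (fun h => by
            have := congrFun h (Sum.inl k₁)
            simp [hk21, Ne.symm hk21] at this)
        rwa [B_av, show (av k₂ : Fin m ⊕ Fin m → F) (Sum.inr k₁) = 0 by simp, add_zero] at h7
  obtain ⟨d, hd0, hd⟩ := key
  have hall : ∀ e : F, tr (av k₀) e ∈ T := tr_mem_all hT hd0 hd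
  refine le_antisymm hT.le (USp_le hm hT fun k e => ?_)
  exact tr_mem_iso hT hall (fun i => by simp) e

end closed2

end Cfsg.Agent.Lib.Fusion.PSp.Closed
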