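/-
The two extreme unipotent radicals of `Sp_{2m}(F)`.
-/
import Mathlib
import Cfsg.Agent.Lib.Fusion.PSp.Closed

set_option autoImplicit false
set_option linter.unusedSectionVars false
set_option linter.unusedSimpArgs false
set_option linter.unusedVariables false

namespace Cfsg.Agent.Lib.Fusion.PSp.Radicals

open Matrix Cfsg Cfsg.Agent.Lib.Classical.Symp.Basic
open Cfsg.Agent.Lib.Fusion.PSp.Basic Cfsg.Agent.Lib.Fusion.PSp.Upper Cfsg.Agent.Lib.Fusion.PSp.Closed

variable {m : ℕ} {F : Type*} [Field F]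

local notation "B" => sympForm m F

/-- The quotient map. -/
noncomputable abbrev pr : symplecticGroup (Fin m) F →* Cfsg.PSp m F := QuotientGroup.mk' _

theorem pr_surjective : Function.Surjective (pr : symplecticGroup (Fin m) F →* Cfsg.PSp m F) :=
  QuotientGroup.mk'_surjective _

/-- The element `-1`. -/
def minusOne (m : ℕ) (F : Type*) [Field F] : symplecticGroup (Fin m) F :=
  ⟨-1, by
    rw [mem_symplecticGroup_iff_forall]
    intro u v
    simp only [neg_mulVec, one_mulVec]
    rw [B_neg_left, B_neg_right, neg_neg]⟩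

theorem act_minusOne (x : Fin m ⊕ Fin m → F) : act (minusOne m F) x = -x := by
  show (-1 : Matrix (Fin m ⊕ Fin m) (Fin m ⊕ Fin m) F) *ᵥ x = -x
  rw [neg_mulVec, one_mulVec]

theorem minusOne_mem_center (hm : 1 ≤ m) : minusOne m F ∈ Subgroup.center (symplecticGroup (Fin m) F) :=
  (Cfsg.Agent.Lib.Classical.Symp.SimpleMatrix.center_symplectic_iff _ hm).2 (Or.inr rfl)

theorem pr_minusOne_mul (hm : 1 ≤ m) (g : symplecticGroup (Fin m) F) : pr (minusOne m F * g) = pr g := by
  rw [map_mul]
  have : pr (minusOne m F) = 1 := (QuotientGroup.eq_one_iff _).2 (minusOne_mem_center hm)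
  rw [this, one_mul]

section unip
variable [Finite F] {p : ℕ} [hp : Fact p.Prime] [hc : CharP F p]

include hc in
/-- The quotient map is injective on `p`-elements. -/
theorem eq_of_pr_eq (hm : 1 ≤ m) {x y : symplecticGroup (Fin m) F} (hx : PEl p x) (hy : PEl p y)
    (h : pr x = pr y) : x = y := by
  have hz : x⁻¹ * y ∈ Subgroup.center (symplecticGroup (Fin m) F) := QuotientGroup.eq.1 h
  set z := x⁻¹ * y with hzdef
  have hyz : y = x * z := by rw [hzdef]; group
  obtain ⟨a, ha⟩ := hx
  obtain ⟨b, hb⟩ := hy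
  have hcomm : Commute x z := (Subgroup.mem_center_iff.1 hz x)
  have hq : z ^ (p ^ (a + b)) = 1 := by
    have h1 : y ^ (p ^ (a + b)) = 1 := by rw [add_comm, pow_add, pow_mul, hb, one_pow]
    have h2 : x ^ (p ^ (a + b)) = 1 := by rw [pow_add, pow_mul, ha, one_pow]
    rw [hyz, hcomm.mul_pow, h2, one_mul] at h1
    exact h1
  rcases (Cfsg.Agent.Lib.Classical.Symp.SimpleMatrix.center_symplectic_iff _ hm).1 hz with h1 | h1
  · have : z = 1 := Subtype.ext h1
    rw [hyz, this, mul_one]
  · -- `-1` has `p`-power order only if `-1 = 1`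
    have h2 : z.1 ^ (p ^ (a + b)) = 1 := by
      rw [← SubmonoidClass.coe_pow, hq]
      rfl
    rw [h1] at h2
    let i : Fin m := ⟨0, by omega⟩
    have h3 : ((-1 : F)) ^ (p ^ (a + b)) = 1 := by
      have h4 := congrFun (congrFun h2 (Sum.inl i)) (Sum.inl i)
      have h5 : ((-1 : Matrix (Fin m ⊕ Fin m) (Fin m ⊕ Fin m) F) ^ (p ^ (a + b))) =
          ((-1 : F) ^ (p ^ (a + b))) • (1 : Matrix (Fin m ⊕ Fin m) (Fin m ⊕ Fin m) F) := by
        have : (-1 : Matrix (Fin m ⊕ Fin m) (Fin m ⊕ Fin m) F) = (-1 : F) • 1 := by simp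
        rw [this, smul_pow, one_pow]
      rw [h5] at h4
      simpa using h4
    have h4 : (-1 : F) = 1 := frob_eq_one h3
    have : z = 1 := by
      apply Subtype.ext
      rw [h1]
      have h5 : (-1 : Matrix (Fin m ⊕ Fin m) (Fin m ⊕ Fin m) F) = (-1 : F) • 1 := by simp
      rw [h5, h4]
      simp
    rw [hyz, this, mul_one]

include hc in
theorem pEl_Et {w v : Fin m ⊕ Fin m → F} (h : B v w = 0) (c : F) : PEl p (Et w v c) := by
  refine ⟨1, ?_⟩
  rw [pow_one, Et_pow h, CharP.cast_eq_zero, zero_smul, zero_mul, Et_zero_zero]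

include hc in
theorem pEl_tr (w : Fin m ⊕ Fin m → F) (c : F) : PEl p (tr w c) := by
  rw [tr_eq_Et]
  exact pEl_Et (B_zero_left w) c

theorem order_pr_of_pEl {x : symplecticGroup (Fin m) F} (hx : PEl p x) :
    ∃ k : ℕ, orderOf (pr x) = p ^ k := by
  obtain ⟨a, ha⟩ := hx
  have h1 : orderOf (pr x) ∣ p ^ a := by
    apply orderOf_dvd_of_pow_eq_one
    rw [← map_pow, ha, map_one]
  obtain ⟨k, -, hk⟩ := (Nat.dvd_prime_pow hp.out).1 h1
  exact ⟨k, hk⟩

end unip

/-! ### The radical `Q` -/

section Q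
variable [Finite F]

/-- The radical of the stabilizer of `a_k`. -/
def QS (k : Fin m) : Subgroup (symplecticGroup (Fin m) F) where
  carrier := {g | ∃ (v : Fin m ⊕ Fin m → F) (c : F), B v (av k) = 0 ∧ g = Et (av k) v c}
  mul_mem' := by
    rintro _ _ ⟨v, c, hv, rfl⟩ ⟨v', c', hv', rfl⟩
    exact ⟨_, _, by rw [B_add_left, hv, hv', add_zero], Et_mul hv hv' c c'⟩
  one_mem' := ⟨0, 0, B_zero_left _, (Et_zero_zero _).symm⟩
  inv_mem' := by
    rintro _ ⟨v, c, hv, rfl⟩
    exact ⟨_, _, by rw [B_neg_left, hv, neg_zero], Et_inv hv c⟩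

theorem QS_le (k₀ : Fin m) (hk₀ : (k₀ : ℕ) = 0) : QS k₀ ≤ USp m F := by
  rintro _ ⟨v, c, hv, rfl⟩
  refine isU_Et (fun i hi => ?_) c
  have : i = k₀ := by
    apply Fin.ext
    have : i.val ≤ k₀.val := hi
    omega
  rw [B_av] at hv
  rw [this]
  exact hv

/-- Elements multiplying `a_k` by a scalar normalize `QS k`. -/
theorem conj_mem_QS {k : Fin m} {g : symplecticGroup (Fin m) F} {μ : F} (hg : act g (av k) = μ • av k)
    {x : symplecticGroup (Fin m) F} (hx : x ∈ QS k) : g * x * g⁻¹ ∈ QS k := by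
  obtain ⟨v, c, hv, rfl⟩ := hx
  have h1 : B (act g v) (μ • av k) = 0 := by rw [← hg, B_act, hv]
  rw [B_smul_right] at h1
  have h2 : B (μ • act g v) (av k) = 0 := by rw [B_smul_left, h1]
  refine ⟨μ • act g v, μ ^ 2 * c, h2, ?_⟩
  rw [Et_conj hv, hg, Et_smul (by
    by_cases hμ : μ = 0
    · subst hμ
      have := congrArg (act g⁻¹) hg
      rw [act_inv_act, zero_smul, act_zero] at this
      exact absurd this (av_ne_zero k)
    · exact (mul_eq_zero.1 h1).resolve_left hμ)]

end Q

/-! ### The Siegel radical -/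

section S
variable [Finite F]

/-- The pointwise stabilizer of `a_0, ..., a_{m-1}`. -/
def SS (m : ℕ) (F : Type*) [Field F] : Subgroup (symplecticGroup (Fin m) F) where
  carrier := {g | ∀ i, act g (av i) = av i}
  mul_mem' := by
    intro g h hg hh i
    rw [act_mul, hh, hg]
  one_mem' := fun i => act_one _
  inv_mem' := by
    intro g hg i
    conv_lhs => rw [← hg i]
    exact act_inv_act g _

theorem fix_of_mem_SS {g : symplecticGroup (Fin m) F} (hg : g ∈ SS m F) {x : Fin m ⊕ Fin m → F}
    (hx : ∀ i, x (Sum.inr i) = 0) : act g x = x := by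
  have h1 : x = ∑ i, x (Sum.inl i) • av i := by
    ext α
    rw [Finset.sum_apply]
    rcases α with j | j
    · rw [Finset.sum_eq_single j]
      · simp
      · intro b _ hb
        have : Sum.inl j ≠ (Sum.inl b : Fin m ⊕ Fin m) := by simp [Ne.symm hb]
        simp [Pi.single_apply, Ne.symm hb]
      · simp
    · simp [hx j]
  rw [h1]
  have h2 : ∀ A : Finset (Fin m), act g (∑ i ∈ A, x (Sum.inl i) • av i) = ∑ i ∈ A, x (Sum.inl i) • av i := by
    intro A
    classical
    induction A using Finset.induction_on with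
    | empty => simp [act_zero]
    | insert a A ha ih =>
      rw [Finset.sum_insert ha, act_add, ih, act_smul, hg a]
  exact h2 _

theorem SS_le : SS m F ≤ USp m F := by
  intro g hg
  have hcol : ∀ (α : Fin m ⊕ Fin m) (i : Fin m), g.1 α (Sum.inl i) = (av i : Fin m ⊕ Fin m → F) α := by
    intro α i
    rw [coe_apply_eq_act, hg i]
  have hcol2 : ∀ i j : Fin m, g.1 (Sum.inr i) (Sum.inr j) = if i = j then 1 else 0 := by
    intro i j
    rw [coe_apply_eq_act]
    have h1 := B_act g (bv j) (av i)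
    rw [hg i, B_av, B_av] at h1
    rw [h1]
    by_cases hij : i = j
    · subst hij
      simp
    · have : j ≠ i := Ne.symm hij
      simp [hij, this]
  constructor
  · intro α β hlt
    have hne : α ≠ β := fun e => by subst e; exact lt_irrefl _ hlt
    rcases β with j | j
    · rw [hcol]
      exact Pi.single_eq_of_ne hne _
    · rcases α with i | i
      · have := i.2
        have := j.2
        simp only [rk_inl, rk_inr] at hlt
        omega
      · rw [hcol2, if_neg]
        intro e
        exact hne (by rw [e])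
  · intro α
    rcases α with i | i
    · rw [hcol]
      simp
    · rw [hcol2, if_pos rfl]

/-- Elements preserving the `a`-space normalize `SS`. -/
theorem conj_mem_SS {g : symplecticGroup (Fin m) F}
    (hg : ∀ i j, act g (av i) (Sum.inr j) = 0) {r : symplecticGroup (Fin m) F} (hr : r ∈ SS m F) :
    g⁻¹ * r * g ∈ SS m F := by
  intro i
  rw [act_mul, act_mul, fix_of_mem_SS hr (hg i), act_inv_act]

theorem tr_mem_SS {w : Fin m ⊕ Fin m → F} (hw : ∀ i, w (Sum.inr i) = 0) (c : F) : tr w c ∈ SS m F := by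
  intro i
  rw [act_tr, B_av_left, hw i]
  simp

end S

end Cfsg.Agent.Lib.Fusion.PSp.Radicals
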