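/-
The diagonal torus of `Sp_{2m}(F)` and its generators.
-/
import Mathlib
import Cfsg.Agent.Lib.Fusion.PSp.Radicals

set_option autoImplicit false
set_option linter.unusedSectionVars false
set_option linter.unusedSimpArgs false
set_option linter.unusedVariables false

namespace Cfsg.Agent.Lib.Fusion.PSp.Torus

open Matrix Cfsg Cfsg.Agent.Lib.Classical.Symp.Basic
open Cfsg.Agent.Lib.Fusion.PSp.Basic Cfsg.Agent.Lib.Fusion.PSp.Upper Cfsg.Agent.Lib.Fusion.PSp.Closed
open Cfsg.Agent.Lib.Fusion.PSp.Radicals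

variable {m : ℕ} {F : Type*} [Field F]

local notation "B" => sympForm m F

/-- The diagonal of a torus element. -/
def dg (t : Fin m → F) : Fin m ⊕ Fin m → F := Sum.elim t (fun i => (t i)⁻¹)

@[simp] theorem dg_inl (t : Fin m → F) (i : Fin m) : dg t (Sum.inl i) = t i := rfl

@[simp] theorem dg_inr (t : Fin m → F) (i : Fin m) : dg t (Sum.inr i) = (t i)⁻¹ := rfl

theorem dg_ne_zero {t : Fin m → F} (ht : ∀ i, t i ≠ 0) (α : Fin m ⊕ Fin m) : dg t α ≠ 0 := by
  rcases α with i | i
  · exact ht i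
  · exact inv_ne_zero (ht i)

/-- The torus elements. -/
def tor (t : Fin m → F) (ht : ∀ i, t i ≠ 0) : symplecticGroup (Fin m) F :=
  ⟨diagonal (dg t), by
    rw [mem_symplecticGroup_iff_forall]
    intro u v
    rw [sympForm_apply, sympForm_apply]
    refine Finset.sum_congr rfl fun i _ => ?_
    simp only [mulVec_diagonal, dg_inl, dg_inr]
    have := ht i
    field_simp⟩

theorem tor_coe (t : Fin m → F) (ht : ∀ i, t i ≠ 0) : (tor t ht).1 = diagonal (dg t) := rfl

theorem act_tor (t : Fin m → F) (ht : ∀ i, t i ≠ 0) (x : Fin m ⊕ Fin m → F) (γ : Fin m ⊕ Fin m) :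
    act (tor t ht) x γ = dg t γ * x γ := by
  rw [act_def, tor_coe, mulVec_diagonal]

theorem tor_mul (t s : Fin m → F) (ht : ∀ i, t i ≠ 0) (hs : ∀ i, s i ≠ 0) :
    tor t ht * tor s hs = tor (fun i => t i * s i) (fun i => mul_ne_zero (ht i) (hs i)) := by
  apply Subtype.ext
  rw [Submonoid.coe_mul, tor_coe, tor_coe, tor_coe, diagonal_mul_diagonal]
  congr 1
  funext α
  rcases α with i | i
  · rfl
  · simp only [dg_inr, mul_inv]

theorem tor_one : tor (fun _ : Fin m => (1 : F)) (fun _ => one_ne_zero) = 1 := by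
  apply Subtype.ext
  rw [tor_coe]
  have : dg (fun _ : Fin m => (1 : F)) = fun _ => 1 := by
    funext α
    rcases α with i | i <;> simp
  rw [this]
  simp

theorem tor_inv (t : Fin m → F) (ht : ∀ i, t i ≠ 0) :
    (tor t ht)⁻¹ = tor (fun i => (t i)⁻¹) (fun i => inv_ne_zero (ht i)) := by
  apply inv_eq_of_mul_eq_one_right
  rw [tor_mul]
  have : (fun i => t i * (t i)⁻¹) = fun _ => (1 : F) := by
    funext i
    exact mul_inv_cancel₀ (ht i)
  simp only [this]
  exact tor_one

variable [Finite F]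

/-- Torus elements normalize the unitriangular group. -/
theorem conj_isU_tor (t : Fin m → F) (ht : ∀ i, t i ≠ 0) {u : symplecticGroup (Fin m) F} (hu : IsU u) :
    IsU (tor t ht * u * (tor t ht)⁻¹) := by
  have hentry : ∀ α β, (tor t ht * u * (tor t ht)⁻¹).1 α β =
      dg t α * u.1 α β * (dg t β)⁻¹ := by
    intro α β
    rw [tor_inv, Submonoid.coe_mul, Submonoid.coe_mul, tor_coe, tor_coe, Matrix.mul_diagonal,
      Matrix.diagonal_mul]
    congr 1
    rcases β with i | i
    · rfl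
    · simp
  constructor
  · intro α β h
    rw [hentry, hu.1 α β h]
    simp
  · intro α
    rw [hentry, hu.2, mul_one, mul_inv_cancel₀ (dg_ne_zero ht α)]

/-! ### The rank one elements -/

/-- The element with diagonal `s` at `a_i` and `s⁻¹` at `b_i`. -/
def H1 (i : Fin m) (s : F) : symplecticGroup (Fin m) F :=
  tr (av i) s * (tr (bv i) s⁻¹ * (tr (av i) s * (tr (av i) (-1) * (tr (bv i) (-1) * tr (av i) (-1)))))

theorem act_X_inl (i : Fin m) (c : F) (x : Fin m ⊕ Fin m → F) :
    act (tr (av i) c) x (Sum.inl i) = x (Sum.inl i) + c * x (Sum.inr i) := by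
  rw [act_tr, B_av]
  simp

theorem act_X_inr (i : Fin m) (c : F) (x : Fin m ⊕ Fin m → F) :
    act (tr (av i) c) x (Sum.inr i) = x (Sum.inr i) := by
  rw [act_tr, B_av]
  simp

theorem act_X_ne (i : Fin m) (c : F) (x : Fin m ⊕ Fin m → F) {γ : Fin m ⊕ Fin m} (h : γ ≠ Sum.inl i) :
    act (tr (av i) c) x γ = x γ := by
  rw [act_tr, B_av]
  have : (av i : Fin m ⊕ Fin m → F) γ = 0 := Pi.single_eq_of_ne h _
  simp [this]

theorem act_Y_inl (i : Fin m) (c : F) (x : Fin m ⊕ Fin m → F) :
    act (tr (bv i) c) x (Sum.inl i) = x (Sum.inl i) := by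
  rw [act_tr, B_bv]
  simp

theorem act_Y_inr (i : Fin m) (c : F) (x : Fin m ⊕ Fin m → F) :
    act (tr (bv i) c) x (Sum.inr i) = x (Sum.inr i) - c * x (Sum.inl i) := by
  rw [act_tr, B_bv]
  simp
  ring

theorem act_Y_ne (i : Fin m) (c : F) (x : Fin m ⊕ Fin m → F) {γ : Fin m ⊕ Fin m} (h : γ ≠ Sum.inr i) :
    act (tr (bv i) c) x γ = x γ := by
  rw [act_tr, B_bv]
  have : (bv i : Fin m ⊕ Fin m → F) γ = 0 := Pi.single_eq_of_ne h _
  simp [this]

theorem H1_eq (i : Fin m) {s : F} (hs : s ≠ 0) (t : Fin m → F) (ht : ∀ j, t j ≠ 0)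
    (h1 : t i = s) (h2 : ∀ j, j ≠ i → t j = 1) : H1 i s = tor t ht := by
  apply sp_ext
  intro x
  ext γ
  rw [act_tor]
  simp only [H1, act_mul]
  by_cases hγ1 : γ = Sum.inl i
  · subst hγ1
    simp only [act_X_inl, act_X_inr, act_Y_inl, act_Y_inr, dg_inl, h1]
    field_simp
    ring
  · by_cases hγ2 : γ = Sum.inr i
    · subst hγ2
      simp only [act_X_inl, act_X_inr, act_Y_inl, act_Y_inr, dg_inr, h1]
      field_simp
      ring
    · have e : dg t γ = 1 := by
        rcases γ with j | j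
        · rw [dg_inl, h2 j (fun e => hγ1 (by rw [e]))]
        · rw [dg_inr, h2 j (fun e => hγ2 (by rw [e])), inv_one]
      simp only [act_X_ne _ _ _ hγ1, act_Y_ne _ _ _ hγ2, e, one_mul]

/-! ### The elements of the Levi subgroup of the Siegel parabolic -/

/-- `e_k` up, `e_l` down, in the Siegel Levi. -/
def XS (k l : Fin m) (c : F) : symplecticGroup (Fin m) F := Et (av k) ((-c) • bv l) 0

/-- The opposite root element. -/
def YS (k l : Fin m) (c : F) : symplecticGroup (Fin m) F := Et (av l) (c • bv k) 0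

/-- The element with diagonal `s` at `a_k, b_l` and `s⁻¹` at `a_l, b_k`. -/
def H2 (k l : Fin m) (s : F) : symplecticGroup (Fin m) F :=
  XS k l s * (YS k l s⁻¹ * (XS k l s * (XS k l (-1) * (YS k l (-1) * XS k l (-1)))))

theorem B_XS {k l : Fin m} (hkl : k ≠ l) (c : F) : B ((-c) • bv l) (av k) = 0 := by
  rw [B_av]
  simp [Ne.symm hkl, hkl]

theorem B_YS {k l : Fin m} (hkl : k ≠ l) (c : F) : B (c • bv k) (av l) = 0 := by
  rw [B_av]
  simp [Ne.symm hkl, hkl]

theorem act_XS {k l : Fin m} (hkl : k ≠ l) (c : F) (x : Fin m ⊕ Fin m → F) (γ : Fin m ⊕ Fin m) :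
    act (XS k l c) x γ = x γ + (if γ = Sum.inl k then c * x (Sum.inl l) else 0)
      - (if γ = Sum.inr l then c * x (Sum.inr k) else 0) := by
  rw [XS, act_Et (B_XS hkl c), B_smul_right, B_av, B_bv]
  simp only [Pi.add_apply, Pi.smul_apply, smul_eq_mul, Pi.single_apply, zero_mul, add_zero]
  split_ifs <;> (try simp_all) <;> ring

theorem act_YS {k l : Fin m} (hkl : k ≠ l) (c : F) (x : Fin m ⊕ Fin m → F) (γ : Fin m ⊕ Fin m) :
    act (YS k l c) x γ = x γ - (if γ = Sum.inl l then c * x (Sum.inl k) else 0)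
      + (if γ = Sum.inr k then c * x (Sum.inr l) else 0) := by
  rw [YS, act_Et (B_YS hkl c), B_smul_right, B_av, B_bv]
  simp only [Pi.add_apply, Pi.smul_apply, smul_eq_mul, Pi.single_apply, zero_mul, add_zero]
  split_ifs <;> (try simp_all) <;> ring

theorem H2_eq {k l : Fin m} (hkl : k ≠ l) {s : F} (hs : s ≠ 0) (t : Fin m → F) (ht : ∀ j, t j ≠ 0)
    (h1 : t k = s) (h1' : t l = s⁻¹) (h2 : ∀ j, j ≠ k → j ≠ l → t j = 1) : H2 k l s = tor t ht := by
  have hlk : l ≠ k := Ne.symm hkl
  apply sp_ext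
  intro x
  ext γ
  rw [act_tor]
  simp only [H2, act_mul]
  by_cases hγ1 : γ = Sum.inl k
  · subst hγ1
    simp only [act_XS hkl, act_YS hkl, dg_inl, h1, Sum.inl.injEq, reduceCtorEq, if_false, if_true,
      hlk, hkl, sub_zero, add_zero]
    field_simp
    ring
  · by_cases hγ2 : γ = Sum.inl l
    · subst hγ2
      simp only [act_XS hkl, act_YS hkl, dg_inl, h1', Sum.inl.injEq, reduceCtorEq, if_false, if_true,
        hlk, hkl, sub_zero, add_zero]
      field_simp
      ring
    · by_cases hγ3 : γ = Sum.inr k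
      · subst hγ3
        simp only [act_XS hkl, act_YS hkl, dg_inr, h1, Sum.inr.injEq, reduceCtorEq, if_false, if_true,
          hlk, hkl, sub_zero, add_zero]
        field_simp
        ring
      · by_cases hγ4 : γ = Sum.inr l
        · subst hγ4
          simp only [act_XS hkl, act_YS hkl, dg_inr, h1', Sum.inr.injEq, reduceCtorEq, if_false, if_true,
            hlk, hkl, sub_zero, add_zero, inv_inv]
          field_simp
          ring
        · have e : dg t γ = 1 := by
            rcases γ with j | j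
            · rw [dg_inl, h2 j (fun e => hγ1 (by rw [e])) (fun e => hγ2 (by rw [e]))]
            · rw [dg_inr, h2 j (fun e => hγ3 (by rw [e])) (fun e => hγ4 (by rw [e])), inv_one]
          simp only [act_XS hkl, act_YS hkl, if_neg hγ1, if_neg hγ2, if_neg hγ3, if_neg hγ4, e, one_mul,
            add_zero, sub_zero]

end Cfsg.Agent.Lib.Fusion.PSp.Torus
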