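/-
The defining characteristic fusion system of `PSp_{2m}(F)` is simple.
-/
import Mathlib
import Cfsg.Agent.Lib.Fusion.PSp.Torus

set_option autoImplicit false
set_option linter.unusedSectionVars false
set_option linter.unusedSimpArgs false
set_option linter.unusedVariables false

namespace Cfsg.Agent.Lib.Fusion.PSp.Main

open Matrix Cfsg Cfsg.Agent.Lib.Classical.Symp.Basic
open Cfsg.Agent.Lib.Fusion.PSp.Basic Cfsg.Agent.Lib.Fusion.PSp.Upper Cfsg.Agent.Lib.Fusion.PSp.Closed
open Cfsg.Agent.Lib.Fusion.PSp.Radicals Cfsg.Agent.Lib.Fusion.PSp.Torus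
open Cfsg.Agent.Lib.Fusion.SimpleCriterion3 Cfsg.Agent.Lib.Fusion.GroupSylow

variable {m : ℕ} {F : Type*} [Field F]

local notation "B" => sympForm m F

section nondeg

theorem exists_B_ne {w : Fin m ⊕ Fin m → F} (hw : w ≠ 0) : ∃ x, B x w ≠ 0 := by
  obtain ⟨α, hα⟩ := Function.ne_iff.1 hw
  rcases α with i | i
  · exact ⟨bv i, by rw [B_bv_left]; simpa using hα⟩
  · exact ⟨av i, by rw [B_av_left]; simpa using hα⟩

/-- Equal transvections have proportional centres. -/
theorem tr_eq_imp {u w : Fin m ⊕ Fin m → F} (hw : w ≠ 0) (h : tr u (1 : F) = tr w 1) :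
    ∃ μ : F, u = μ • w ∧ μ ^ 2 = 1 := by
  obtain ⟨x, hx⟩ := exists_B_ne hw
  have h1 := congrArg (fun g => act g x) h
  simp only [act_tr, one_mul] at h1
  have h2 : B x u • u = B x w • w := add_left_cancel h1
  have h3 : B x u ≠ 0 := by
    intro h0
    rw [h0, zero_smul] at h2
    exact smul_ne_zero hx hw h2.symm
  have hu : u = (B x w / B x u) • w := by
    rw [div_eq_mul_inv, mul_comm, mul_smul, ← h2, smul_smul, inv_mul_cancel₀ h3, one_smul]
  refine ⟨B x w / B x u, hu, ?_⟩
  set μ := B x w / B x u with hμ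
  rw [hu, tr_smul, mul_one] at h
  have h4 := congrArg (fun g => act g x) h
  simp only [act_tr, one_mul] at h4
  have h5 : (μ ^ 2 * B x w) • w = B x w • w := add_left_cancel h4
  obtain ⟨γ, hγ⟩ := Function.ne_iff.1 hw
  have h6 := congrFun h5 γ
  simp only [Pi.smul_apply, smul_eq_mul, Pi.zero_apply] at h6 hγ
  have h7 : (μ ^ 2 - 1) * (B x w * w γ) = 0 := by linear_combination h6
  have h8 := (mul_eq_zero.1 h7).resolve_right (mul_ne_zero hx hγ)
  linear_combination h8

theorem sq_eq_one_cases {μ : F} (h : μ ^ 2 = 1) : μ = 1 ∨ μ = -1 := by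
  have : (μ - 1) * (μ + 1) = 0 := by linear_combination h
  rcases mul_eq_zero.1 this with h1 | h1
  · exact Or.inl (sub_eq_zero.1 h1)
  · exact Or.inr (eq_neg_of_add_eq_zero_left h1)

end nondeg

section main
variable [Finite F] {p : ℕ} [hp : Fact p.Prime] [hc : CharP F p]

/-- The image of the radical of the stabilizer of `a_0`. -/
noncomputable def RQ (k₀ : Fin m) (F : Type*) [Field F] [Finite F] : Subgroup (Cfsg.PSp m F) :=
  (QS k₀).map pr

/-- The image of the Siegel radical. -/
noncomputable def RS (m : ℕ) (F : Type*) [Field F] [Finite F] : Subgroup (Cfsg.PSp m F) :=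
  (SS m F).map pr

/-- The image of the unitriangular group. -/
noncomputable def UP (m : ℕ) (F : Type*) [Field F] [Finite F] : Subgroup (Cfsg.PSp m F) :=
  (USp m F).map pr

instance : Finite (Cfsg.PSp m F) := inferInstanceAs (Finite (_ ⧸ _))

theorem pr_mem_normalizer_RQ {k₀ : Fin m} {g : symplecticGroup (Fin m) F} {μ : F}
    (hg : act g (av k₀) = μ • av k₀) :
    pr g ∈ Subgroup.normalizer ((RQ k₀ F : Subgroup _) : Set (Cfsg.PSp m F)) := by
  apply Cfsg.Agent.Lib.Fusion.SimpleCriterion2.mem_normalizer_of_conj_le'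
  rintro _ ⟨r, hr, rfl⟩
  exact ⟨g * r * g⁻¹, conj_mem_QS hg hr, by simp⟩

theorem pr_mem_normalizer_RS {g : symplecticGroup (Fin m) F}
    (hg : ∀ i j, act g (av i) (Sum.inr j) = 0) :
    pr g ∈ Subgroup.normalizer ((RS m F : Subgroup _) : Set (Cfsg.PSp m F)) := by
  have : (pr g)⁻¹ ∈ Subgroup.normalizer ((RS m F : Subgroup _) : Set (Cfsg.PSp m F)) := by
    apply Cfsg.Agent.Lib.Fusion.SimpleCriterion2.mem_normalizer_of_conj_le'
    rintro _ ⟨r, hr, rfl⟩
    exact ⟨g⁻¹ * r * g, conj_mem_SS hg hr, by simp⟩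
  simpa using Subgroup.inv_mem _ this

theorem fix_av_of_isU {u : symplecticGroup (Fin m) F} (hu : IsU u) {k₀ : Fin m} (hk₀ : (k₀ : ℕ) = 0) :
    act u (av k₀) = av k₀ := by
  ext α
  rw [← coe_apply_eq_act]
  by_cases hα : α = Sum.inl k₀
  · subst hα
    rw [hu.2]
    simp
  · rw [hu.1]
    · have h0 : (av k₀ : Fin m ⊕ Fin m → F) α = 0 := Pi.single_eq_of_ne hα _
      exact h0.symm
    · have : rk (Sum.inl k₀) = 0 := hk₀
      rw [this]
      rcases α with i | i
      · have : i.val ≠ 0 := fun e => hα (by rw [Fin.ext (a := i) (b := k₀) (by omega)])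
        simp only [rk_inl]
        omega
      · have := i.2
        simp only [rk_inr]
        omega

theorem UP_le_normalizer_RQ {k₀ : Fin m} (hk₀ : (k₀ : ℕ) = 0) :
    UP m F ≤ Subgroup.normalizer ((RQ k₀ F : Subgroup _) : Set (Cfsg.PSp m F)) := by
  rintro _ ⟨u, hu, rfl⟩
  exact pr_mem_normalizer_RQ (μ := 1) (by rw [fix_av_of_isU hu hk₀, one_smul])

theorem UP_le_normalizer_RS : UP m F ≤ Subgroup.normalizer ((RS m F : Subgroup _) : Set (Cfsg.PSp m F)) := by
  rintro _ ⟨u, hu, rfl⟩
  refine pr_mem_normalizer_RS fun i j => ?_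
  rw [← coe_apply_eq_act]
  apply hu.1
  have := i.2
  have := j.2
  simp only [rk_inl, rk_inr]
  omega

include hc in
/-- Commuting in `PSp` with a `p`-element implies commuting in `Sp`. -/
theorem conj_eq_of_comm (hm : 1 ≤ m) {g r : symplecticGroup (Fin m) F} (hr : PEl p r)
    (h : pr r * pr g = pr g * pr r) : g * r * g⁻¹ = r := by
  apply eq_of_pr_eq (p := p) hm (hr.conj g) hr
  rw [map_mul, map_mul, ← h, map_inv]
  group

include hc in
theorem centralizer_RQ_le (hm : 1 ≤ m) {k₀ : Fin m} (hk₀ : (k₀ : ℕ) = 0) :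
    Subgroup.centralizer ((RQ k₀ F : Subgroup _) : Set (Cfsg.PSp m F)) ≤ RQ k₀ F := by
  intro x hx
  obtain ⟨g, rfl⟩ := pr_surjective x
  have hcomm : ∀ r ∈ QS k₀, PEl p r → g * r * g⁻¹ = r := fun r hr hpe =>
    conj_eq_of_comm hm hpe (Subgroup.mem_centralizer_iff.1 hx _ ⟨r, hr, rfl⟩)
  have h1 : g * tr (av k₀) 1 * g⁻¹ = tr (av k₀) 1 := by
    refine hcomm _ ⟨0, 1, B_zero_left _, tr_eq_Et _ _⟩ (pEl_tr _ _)
  rw [tr_conj] at h1
  obtain ⟨μ, hμ, hμ2⟩ := tr_eq_imp (av_ne_zero k₀) h1
  have hkey : ∃ g' : symplecticGroup (Fin m) F, pr g' = pr g ∧ act g' (av k₀) = av k₀ ∧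
      ∀ r, g * r = r * g → g' * r = r * g' := by
    rcases sq_eq_one_cases hμ2 with rfl | rfl
    · exact ⟨g, rfl, by rw [hμ, one_smul], fun r hr => hr⟩
    · refine ⟨minusOne m F * g, pr_minusOne_mul hm g, ?_, fun r hr => ?_⟩
      · rw [act_mul, hμ, act_minusOne]
        simp
      · have h2 := Subgroup.mem_center_iff.1 (minusOne_mem_center (F := F) hm) r
        rw [mul_assoc, hr, ← mul_assoc, ← h2, mul_assoc]
  obtain ⟨g', hg1, hg2, hg3⟩ := hkey
  obtain ⟨v₀, c₀, hv₀, hE⟩ := eq_Et_of_comm hg2 fun v hv => by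
    apply hg3
    have := hcomm _ ⟨v, 0, hv, rfl⟩ (pEl_Et hv 0)
    rw [mul_inv_eq_iff_eq_mul] at this
    exact this
  refine ⟨g', ⟨v₀, c₀, by rw [B_av]; exact hv₀.2, hE⟩, hg1⟩

include hc in
theorem centralizer_RS_le (hm : 1 ≤ m) {k₀ : Fin m} :
    Subgroup.centralizer ((RS m F : Subgroup _) : Set (Cfsg.PSp m F)) ≤ RS m F := by
  intro x hx
  obtain ⟨g, rfl⟩ := pr_surjective x
  have hcomm : ∀ r ∈ SS m F, PEl p r → g * r * g⁻¹ = r := fun r hr hpe =>
    conj_eq_of_comm hm hpe (Subgroup.mem_centralizer_iff.1 hx _ ⟨r, hr, rfl⟩)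
  have h1 : ∀ w : Fin m ⊕ Fin m → F, (∀ i, w (Sum.inr i) = 0) → w ≠ 0 →
      ∃ μ : F, act g w = μ • w ∧ μ ^ 2 = 1 := by
    intro w hw hw0
    have h2 := hcomm _ (tr_mem_SS hw 1) (pEl_tr _ _)
    rw [tr_conj] at h2
    exact tr_eq_imp hw0 h2
  obtain ⟨μ, hμ, hμ2⟩ := h1 (av k₀) (fun i => by simp) (av_ne_zero k₀)
  have hall : ∀ i, act g (av i) = μ • av i := by
    intro i
    by_cases hi : i = k₀
    · rw [hi, hμ]
    · obtain ⟨μ', hμ', -⟩ := h1 (av i) (fun j => by simp) (av_ne_zero i)
      obtain ⟨ν, hν, -⟩ := h1 (av i + av k₀) (fun j => by simp) (by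
        intro h
        have := congrFun h (Sum.inl i)
        simp [hi] at this)
      rw [act_add, hμ, hμ'] at hν
      have h2 := congrFun hν (Sum.inl i)
      have h3 := congrFun hν (Sum.inl k₀)
      have hne : k₀ ≠ i := Ne.symm hi
      simp [hi, hne] at h2 h3
      rw [hμ', h2, ← h3]
  have hkey : ∃ g' : symplecticGroup (Fin m) F, pr g' = pr g ∧ g' ∈ SS m F := by
    rcases sq_eq_one_cases hμ2 with rfl | rfl
    · exact ⟨g, rfl, fun i => by rw [hall, one_smul]⟩
    · refine ⟨minusOne m F * g, pr_minusOne_mul hm g, fun i => ?_⟩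
      rw [act_mul, hall, act_minusOne]
      simp
  obtain ⟨g', hg1, hg2⟩ := hkey
  exact ⟨g', hg2, hg1⟩

/-! ### The generation of the normalizer -/

/-- The family. -/
noncomputable def family (k₀ : Fin m) (F : Type*) [Field F] [Finite F] : Set (Subgroup (Cfsg.PSp m F)) :=
  {RQ k₀ F, RS m F}

theorem mem_KK_of {R : Subgroup (Cfsg.PSp m F)} {x : symplecticGroup (Fin m) F} (hx : PEl p x)
    (hN : pr x ∈ Subgroup.normalizer (R : Set (Cfsg.PSp m F))) : pr x ∈ KK p R :=
  Subgroup.subset_closure ⟨hN, order_pr_of_pEl hx⟩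

theorem pr_tor_mem_normalizer (t : Fin m → F) (ht : ∀ i, t i ≠ 0) :
    pr (tor t ht) ∈ Subgroup.normalizer ((UP m F : Subgroup _) : Set (Cfsg.PSp m F)) := by
  apply Cfsg.Agent.Lib.Fusion.SimpleCriterion2.mem_normalizer_of_conj_le'
  rintro _ ⟨u, hu, rfl⟩
  exact ⟨tor t ht * u * (tor t ht)⁻¹, conj_isU_tor t ht hu, by simp⟩

include hc in
theorem mem_DD_H1 {k₀ i : Fin m} (hi : i ≠ k₀) {s : F} (hs : s ≠ 0) :
    pr (H1 i s) ∈ DD p (family k₀ F) (UP m F) := by
  classical
  have hfix : ∀ (w : Fin m ⊕ Fin m → F) (c : F), B (av k₀) w = 0 → act (tr w c) (av k₀) = (1 : F) • av k₀ := by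
    intro w c h
    rw [act_tr, h, one_smul]
    simp
  have hX : ∀ c : F, pr (tr (av i) c) ∈ KK p (RQ k₀ F) := fun c =>
    mem_KK_of (pEl_tr (p := p) _ c) (pr_mem_normalizer_RQ (hfix _ c (by rw [B_av_left]; simp)))
  have hY : ∀ c : F, pr (tr (bv i) c) ∈ KK p (RQ k₀ F) := fun c =>
    mem_KK_of (pEl_tr (p := p) _ c) (pr_mem_normalizer_RQ (hfix _ c (by
      rw [B_av_left]
      simp [Ne.symm hi, hi])))
  refine Subgroup.subset_closure ⟨RQ k₀ F, Or.inl rfl, ?_, ?_⟩
  · simp only [H1, map_mul]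
    exact Subgroup.mul_mem _ (hX _) (Subgroup.mul_mem _ (hY _) (Subgroup.mul_mem _ (hX _)
      (Subgroup.mul_mem _ (hX _) (Subgroup.mul_mem _ (hY _) (hX _)))))
  · rw [H1_eq i hs (Function.update (fun _ => 1) i s) (fun j => by
      by_cases hj : j = i
      · subst hj
        simpa using hs
      · simp [hj]) (by simp) (fun j hj => by simp [hj])]
    exact pr_tor_mem_normalizer _ _

include hc in
theorem mem_DD_H2 {k₀ k l : Fin m} (hkl : k ≠ l) {s : F} (hs : s ≠ 0) :
    pr (H2 k l s) ∈ DD p (family k₀ F) (UP m F) := by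
  classical
  have hlk : l ≠ k := Ne.symm hkl
  have hX : ∀ c : F, pr (XS k l c) ∈ KK p (RS m F) := fun c => by
    refine mem_KK_of (pEl_Et (p := p) (B_XS hkl c) 0) (pr_mem_normalizer_RS fun i j => ?_)
    rw [act_XS hkl, if_neg (by simp)]
    simp [Pi.single_apply]
  have hY : ∀ c : F, pr (YS k l c) ∈ KK p (RS m F) := fun c => by
    refine mem_KK_of (pEl_Et (p := p) (B_YS hkl c) 0) (pr_mem_normalizer_RS fun i j => ?_)
    rw [act_YS hkl, if_neg (by simp)]
    simp [Pi.single_apply]
  refine Subgroup.subset_closure ⟨RS m F, Or.inr rfl, ?_, ?_⟩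
  · simp only [H2, map_mul]
    exact Subgroup.mul_mem _ (hX _) (Subgroup.mul_mem _ (hY _) (Subgroup.mul_mem _ (hX _)
      (Subgroup.mul_mem _ (hX _) (Subgroup.mul_mem _ (hY _) (hX _)))))
  · rw [H2_eq hkl hs (fun j => if j = k then s else if j = l then s⁻¹ else 1) (fun j => by
      by_cases h1 : j = k
      · simp [h1, hs]
      · by_cases h2 : j = l
        · simp [h2, hlk, hs]
        · simp [h1, h2]) (by simp) (by simp [hlk]) (fun j h1 h2 => by simp [h1, h2])]
    exact pr_tor_mem_normalizer _ _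

include hc in
/-- All torus elements are generated. -/
theorem mem_DD_tor (hm : 2 ≤ m) {k₀ : Fin m} (hk₀ : (k₀ : ℕ) = 0) (t : Fin m → F) (ht : ∀ i, t i ≠ 0) :
    pr (tor t ht) ∈ DD p (family k₀ F) (UP m F) := by
  classical
  let k₁ : Fin m := ⟨1, by omega⟩
  have h10 : k₁ ≠ k₀ := by
    intro e
    have := congrArg Fin.val e
    simp [k₁] at this
    omega
  -- single coordinates
  have hsingle : ∀ (i : Fin m) (s : F) (hs : s ≠ 0) (τ : Fin m → F) (hτ : ∀ j, τ j ≠ 0),
      τ i = s → (∀ j, j ≠ i → τ j = 1) → pr (tor τ hτ) ∈ DD p (family k₀ F) (UP m F) := by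
    intro i s hs τ hτ h1 h2
    by_cases hi : i = k₀
    · subst hi
      -- product of `H2` and `H1`
      have e : tor τ hτ = H2 i k₁ s * H1 k₁ s := by
        rw [H2_eq h10.symm hs (fun j => if j = i then s else if j = k₁ then s⁻¹ else 1) (fun j => by
          by_cases h1 : j = i
          · simp [h1, hs]
          · by_cases h2 : j = k₁
            · simp [h2, h10, hs]
            · simp [h1, h2]) (by simp) (by simp [h10]) (fun j h1 h2 => by simp [h1, h2]),
          H1_eq k₁ hs (fun j => if j = k₁ then s else 1) (fun j => by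
            by_cases h1 : j = k₁
            · simp [h1, hs]
            · simp [h1]) (by simp) (fun j hj => by simp [hj]), tor_mul]
        apply Subtype.ext
        rw [tor_coe, tor_coe]
        congr 1
        funext α
        rcases α with j | j
        · simp only [dg_inl]
          by_cases h3 : j = i
          · subst h3
            simp [h10.symm, h1]
          · by_cases h4 : j = k₁
            · subst h4
              simp [h3, hs, h2 _ h3]
            · simp [h3, h4, h2 _ h3]
        · simp only [dg_inr]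
          by_cases h3 : j = i
          · subst h3
            simp [h10.symm, h1]
          · by_cases h4 : j = k₁
            · subst h4
              simp [h3, hs, h2 _ h3]
            · simp [h3, h4, h2 _ h3]
      rw [e, map_mul]
      exact Subgroup.mul_mem _ (mem_DD_H2 h10.symm hs) (mem_DD_H1 h10 hs)
    · rw [← H1_eq i hs τ hτ h1 h2]
      exact mem_DD_H1 hi hs
  have key : ∀ A : Finset (Fin m), ∀ (τ : Fin m → F) (hτ : ∀ j, τ j ≠ 0), (∀ j, j ∉ A → τ j = 1) →
      pr (tor τ hτ) ∈ DD p (family k₀ F) (UP m F) := by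
    intro A
    induction A using Finset.induction_on with
    | empty =>
      intro τ hτ h
      have : τ = fun _ => 1 := funext fun j => h j (by simp)
      subst this
      rw [tor_one, map_one]
      exact Subgroup.one_mem _
    | insert a A ha ih =>
      intro τ hτ h
      have h1 : (fun j => (if j = a then (1 : F) else τ j) * (if j = a then τ a else 1)) = τ := by
        funext j
        by_cases hj : j = a
        · simp [hj]
        · simp [hj]
      have hne1 : ∀ j, (if j = a then (1 : F) else τ j) ≠ 0 := fun j => by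
        by_cases hj : j = a
        · simp [hj]
        · simp [hj, hτ j]
      have hne2 : ∀ j, (if j = a then τ a else 1) ≠ 0 := fun j => by
        by_cases hj : j = a
        · simp [hj, hτ a]
        · simp [hj]
      have e : tor τ hτ = tor _ hne1 * tor _ hne2 := by
        rw [tor_mul]
        congr 1
        exact h1.symm
      rw [e, map_mul]
      refine Subgroup.mul_mem _ (ih _ hne1 fun j hj => ?_) (hsingle a (τ a) (hτ a) _ hne2 (by simp)
        fun j hj => by simp [hj])
      by_cases hja : j = a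
      · simp [hja]
      · simp only [if_neg hja]
        exact h j (by simp [hja, hj])
  exact key Finset.univ t ht (fun j hj => absurd (Finset.mem_univ j) hj)

include hc in
theorem normalizer_le_DD (hm : 2 ≤ m) {k₀ : Fin m} (hk₀ : (k₀ : ℕ) = 0) :
    Subgroup.normalizer ((UP m F : Subgroup _) : Set (Cfsg.PSp m F)) ≤ DD p (family k₀ F) (UP m F) := by
  haveI : NeZero m := ⟨by omega⟩
  intro x hx
  obtain ⟨g, rfl⟩ := pr_surjective x
  have hm1 : 1 ≤ m := by omega
  have hup : ∀ α β, rk β < rk α → g.1 α β = 0 := by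
    refine upper_of_normalizes fun u hu => ?_
    have h1 := (Subgroup.mem_normalizer_iff.1 (Subgroup.inv_mem _ hx) (pr u)).1 ⟨u, hu, rfl⟩
    have h2 : pr (g⁻¹ * u * g) ∈ UP m F := by simpa [map_mul] using h1
    obtain ⟨u', hu', e⟩ := h2
    have hp1 : PEl p (g⁻¹ * u * g) := by
      have := (pEl_of_isU (p := p) hu).conj g⁻¹
      rwa [inv_inv] at this
    have := eq_of_pr_eq (p := p) hm1 (pEl_of_isU hu') hp1 e
    rw [← this]
    exact hu'
  -- the diagonal
  have hpair : ∀ i, g.1 (Sum.inr i) (Sum.inr i) * g.1 (Sum.inl i) (Sum.inl i) = 1 := by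
    intro i
    have h1 := B_act g (bv i) (av i)
    rw [B_bv_av, sympForm_apply, Finset.sum_eq_single i] at h1
    · simp only [← coe_apply_eq_act] at h1
      rw [hup (Sum.inr i) (Sum.inl i) (by
        have := i.2
        simp only [rk_inl, rk_inr]
        omega)] at h1
      simpa using h1
    · intro j _ hj
      simp only [← coe_apply_eq_act]
      rw [hup (Sum.inr j) (Sum.inl i) (by
        have := i.2
        have := j.2
        simp only [rk_inl, rk_inr]
        omega), mul_zero, sub_zero]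
      rcases lt_or_gt_of_ne hj with h | h
      · rw [hup (Sum.inr j) (Sum.inr i) (by
          have := i.2
          have := j.2
          have h3 : j.val < i.val := h
          simp only [rk_inr]
          omega), zero_mul]
      · rw [hup (Sum.inl j) (Sum.inl i) h, mul_zero]
    · simp
  have ht : ∀ i, g.1 (Sum.inl i) (Sum.inl i) ≠ 0 := by
    intro i h0
    have := hpair i
    rw [h0, mul_zero] at this
    exact zero_ne_one this
  set t : Fin m → F := fun i => g.1 (Sum.inl i) (Sum.inl i) with htdef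
  have htinv : ∀ i, g.1 (Sum.inr i) (Sum.inr i) = (t i)⁻¹ := by
    intro i
    exact eq_inv_of_mul_eq_one_left (hpair i)
  have hu : IsU ((tor t ht)⁻¹ * g) := by
    have hentry : ∀ α β, ((tor t ht)⁻¹ * g).1 α β = (dg t α)⁻¹ * g.1 α β := by
      intro α β
      rw [tor_inv, Submonoid.coe_mul, tor_coe, Matrix.diagonal_mul]
      congr 1
      rcases α with i | i
      · rfl
      · simp
    constructor
    · intro α β h
      rw [hentry, hup α β h, mul_zero]
    · intro α
      rw [hentry]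
      rcases α with i | i
      · simp only [dg_inl]
        exact inv_mul_cancel₀ (ht i)
      · simp only [dg_inr, inv_inv, htinv]
        exact mul_inv_cancel₀ (ht i)
  have e : g = tor t ht * ((tor t ht)⁻¹ * g) := by group
  rw [e, map_mul]
  refine Subgroup.mul_mem _ (mem_DD_tor hm hk₀ t ht) ?_
  refine Subgroup.subset_closure ⟨RQ k₀ F, Or.inl rfl, mem_KK_of (pEl_of_isU hu)
    (UP_le_normalizer_RQ hk₀ ⟨_, hu, rfl⟩), Subgroup.le_normalizer ⟨_, hu, rfl⟩⟩

include hc in
/-- Strongly closed subgroups of the image of the unitriangular group. -/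
theorem stronglyClosed_cases (hm : 2 ≤ m) (hex : m = 2 → 3 ≤ Nat.card F) {T : Subgroup (Cfsg.PSp m F)}
    (hT : (groupFusionSystem (UP m F)).StronglyClosed T) : T = ⊥ ∨ T = UP m F := by
  haveI : NeZero m := ⟨by omega⟩
  have hm1 : 1 ≤ m := by omega
  obtain ⟨hle, hcl⟩ := stronglyClosed_iff.1 hT
  have hCl : Cl (T.comap pr ⊓ USp m F) := by
    constructor
    · exact inf_le_right
    · rintro x ⟨hx1, hx2⟩ g hg
      refine ⟨?_, hg⟩
      have h1 : pr g * pr x * (pr g)⁻¹ ∈ UP m F := by
        have : pr (g * x * g⁻¹) ∈ UP m F := ⟨_, hg, rfl⟩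
        simpa [map_mul] using this
      have := hcl _ hx1 (pr g) h1
      simpa [map_mul] using this
  by_cases hbot : T.comap pr ⊓ USp m F = ⊥
  · left
    rw [eq_bot_iff]
    intro t ht
    obtain ⟨u, hu, rfl⟩ := hle ht
    have : u ∈ T.comap pr ⊓ USp m F := ⟨ht, hu⟩
    rw [hbot, Subgroup.mem_bot] at this
    rw [this, map_one]
    exact Subgroup.mem_bot.2 rfl
  · right
    have h1 := closed_cases (p := p) hm hex hCl hbot
    refine le_antisymm hle ?_
    rintro _ ⟨u, hu, rfl⟩
    rw [← h1] at hu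
    exact hu.1

end main

/-- **The defining characteristic fusion system of `PSp_{2m}(F)` is simple.** -/
theorem isSimple_psp {K : Type*} [Field K] [Fintype K] (p : ℕ) [Fact p.Prime] [CharP K p] (m : ℕ)
    (hm : 2 ≤ m) (hex : m = 2 → 3 ≤ Fintype.card K) (S : Sylow p (Cfsg.PSp m K)) :
    (groupFusionSystem (S : Subgroup (Cfsg.PSp m K))).IsSimple p := by
  haveI : NeZero m := ⟨by omega⟩
  have hm1 : 1 ≤ m := by omega
  let k₀ : Fin m := ⟨0, by omega⟩
  have hk₀ : (k₀ : ℕ) = 0 := rfl
  obtain ⟨P, hP⟩ := exists_sylow (p := p) (m := m) (F := K)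
  let S₀ : Sylow p (Cfsg.PSp m K) := P.mapSurjective pr_surjective
  have hS₀ : (S₀ : Subgroup (Cfsg.PSp m K)) = UP m K := by
    show Subgroup.map pr (P : Subgroup (symplecticGroup (Fin m) K)) = _
    rw [hP]
    rfl
  have hF : Nat.card K = Fintype.card K := Nat.card_eq_fintype_card
  refine isSimple_of_data S₀ ?_ ?_ (family k₀ K) ?_ ?_ ?_ ?_ S
  · rw [hS₀]
    intro hbot
    have h1 : pr (tr (av k₀) (1 : K)) ∈ UP m K := ⟨_, isU_tr (fun i => by simp) 1, rfl⟩
    rw [hbot, Subgroup.mem_bot, ← map_one pr] at h1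
    have h2 := eq_of_pr_eq (p := p) hm1 (pEl_tr _ _) ⟨0, by simp⟩ h1
    have h3 := congrArg (fun g => act g (bv k₀)) h2
    simp only [act_tr, act_one, B_bv_av, mul_one, one_smul] at h3
    exact av_ne_zero k₀ (add_left_cancel (h3.trans (add_zero _).symm))
  · intro T hT
    rw [hS₀] at hT ⊢
    exact stronglyClosed_cases hm (fun h => by rw [hF]; exact hex h) hT
  · rintro R (rfl | rfl)
    · rw [hS₀]
      exact Subgroup.map_mono (QS_le k₀ hk₀)
    · rw [hS₀]
      exact Subgroup.map_mono SS_le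
  · rintro R (rfl | rfl)
    · rw [hS₀]
      exact UP_le_normalizer_RQ hk₀
    · rw [hS₀]
      exact UP_le_normalizer_RS
  · rintro R (rfl | rfl)
    · exact centralizer_RQ_le (p := p) hm1 hk₀
    · exact centralizer_RS_le (p := p) hm1 (k₀ := k₀)
  · rw [hS₀]
    exact normalizer_le_DD hm hk₀

end Cfsg.Agent.Lib.Fusion.PSp.Main
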